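import Mathlib
import Cfsg.Agent.Lib.PiwekK.Graph

/-!
Commutator subgroups of small permutation groups by a kernel computation.
-/

set_option autoImplicit false

namespace Cfsg.Agent.Lib.PiwekK

open Equiv

theorem permOf_of_memT {m : ℕ} (hm : m ≤ 1024) {gA : List ℕ} (hvA : ∀ g ∈ gA, validB m g = true) {c : ℕ}
    (hv : validB m c = true) (h : memT c (elemsT m gA) = true) : permOf m c ∈ grp m gA := by
  obtain ⟨τ, hτ, he⟩ := elems_reach hm hvA c (memT_sound _ _ h)
  rw [← code_permOf hv] at he
  rwa [← code_injective hm he]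

theorem grp_eq_of_mem {m : ℕ} (hm : m ≤ 1024) {gB gA : List ℕ}
    (hvA : ∀ g ∈ gA, validB m g = true) (hvB : ∀ g ∈ gB, validB m g = true)
    (hsub : ∀ g ∈ gA, g ∈ gB)
    (hmem : ∀ g ∈ gB, memT g (elemsT m gA) = true) : grp m gB = grp m gA := by
  apply le_antisymm
  · refine (Subgroup.closure_le _).2 ?_
    rintro _ ⟨c, hc, rfl⟩
    exact permOf_of_memT hm hvA (hvB c hc) (hmem c hc)
  · refine (Subgroup.closure_le _).2 ?_
    rintro _ ⟨c, hc, rfl⟩
    exact Subgroup.subset_closure ⟨c, hsub c hc, rfl⟩

/-- the inverse as a power -/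
def invP (m e c : ℕ) : ℕ := pw m c 16 e

/-- the commutator of two codes -/
def comC (m e a b : ℕ) : ℕ := cmul m (cmul m (cmul m a b) (invP m e a)) (invP m e b)

/-- check that `gC` generates the commutator subgroup of the group generated by `gA` -/
def checkComm (m e : ℕ) (gA gC : List ℕ) : Bool :=
  decide (m ≤ 1024) && decide (e < 65536) && gA.all (validB m) && gC.all (validB m) &&
  gA.all (fun s => Nat.beq (cmul m s (invP m e s)) (idc m)) &&
  gA.all (fun s => gC.all (fun t => memT (cmul m (cmul m s t) (invP m e s)) (elemsT m gC))) &&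
  gA.all (fun a => gA.all (fun b => memT (comC m e a b) (elemsT m gC))) &&
  gC.all (fun c => gA.any (fun a => gA.any (fun b => Nat.beq (comC m e a b) c)))

theorem checkComm_sound {m e : ℕ} {gA gC : List ℕ} (h : checkComm m e gA gC = true) :
    ⁅grp m gA, grp m gA⁆ = grp m gC := by
  simp only [checkComm, Bool.and_eq_true, List.all_eq_true, List.any_eq_true, decide_eq_true_eq, Nat.beq_eq] at h
  obtain ⟨⟨⟨⟨⟨⟨⟨hm, he⟩, hvA⟩, hvC⟩, hi⟩, h1⟩, h2⟩, h3⟩ := h
  have hinv : ∀ s ∈ gA, invP m e s = code (permOf m s)⁻¹ := by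
    intro s hs
    have e1 : invP m e s = code (permOf m s ^ e) := by
      rw [code_pow hm _ 16 e he, code_permOf (hvA s hs)]
      rfl
    have e2 := hi s hs
    rw [e1] at e2
    nth_rewrite 1 [← code_permOf (hvA s hs)] at e2
    rw [← code_mul hm, ← code_one] at e2
    have e3 := code_injective hm e2
    rw [e1]
    congr 1
    exact eq_inv_of_mul_eq_one_right e3
  have hcomm : ∀ a ∈ gA, ∀ b ∈ gA, comC m e a b =
      code (permOf m a * permOf m b * (permOf m a)⁻¹ * (permOf m b)⁻¹) := by
    intro a ha b hb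
    rw [code_mul hm, code_mul hm, code_mul hm, code_permOf (hvA a ha), code_permOf (hvA b hb), comC, hinv a ha,
      hinv b hb]
  apply le_antisymm
  · apply commutator_closure_le
    · rintro _ ⟨s, hs, rfl⟩ _ ⟨t, ht, rfl⟩
      have h4 := h1 s hs t ht
      obtain ⟨τ, hτ, he'⟩ := elems_reach hm hvC _ (memT_sound _ _ h4)
      rw [hinv s hs] at he'
      nth_rewrite 1 [← code_permOf (hvA s hs)] at he'
      nth_rewrite 1 [← code_permOf (hvC t ht)] at he'
      rw [← code_mul hm, ← code_mul hm] at he'
      rwa [← code_injective hm he']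
    · rintro _ ⟨a, ha, rfl⟩ _ ⟨b, hb, rfl⟩
      have h4 := h2 a ha b hb
      obtain ⟨τ, hτ, he'⟩ := elems_reach hm hvC _ (memT_sound _ _ h4)
      rw [hcomm a ha b hb] at he'
      rwa [← code_injective hm he']
  · refine (Subgroup.closure_le _).2 ?_
    rintro _ ⟨c, hc, rfl⟩
    obtain ⟨a, ha, b, hb, hab⟩ := h3 c hc
    rw [hcomm a ha b hb] at hab
    have e4 : permOf m c = permOf m a * permOf m b * (permOf m a)⁻¹ * (permOf m b)⁻¹ := by
      apply code_injective hm
      rw [code_permOf (hvC c hc), hab]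
    rw [e4]
    exact Subgroup.commutator_mem_commutator (permOf_mem_grp ha) (permOf_mem_grp hb)

/-- The commutator subgroup of a group isomorphic to a subgroup `K`. -/
theorem commutator_equiv_of {G Γ : Type*} [Group G] [Group Γ] {K L : Subgroup Γ} (e : G ≃* K) (hK : ⁅K, K⁆ = L) :
    Nonempty (commutator G ≃* L) := by
  have h1 : (commutator G).map e.toMonoidHom = commutator K := by
    rw [commutator_def, commutator_def, Subgroup.map_commutator,
      Subgroup.map_top_of_surjective _ e.surjective]
  have h2 : (commutator K).map K.subtype = L := by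
    rw [Subgroup.map_subtype_commutator, hK]
  have e1 : commutator G ≃* (commutator G).map e.toMonoidHom := e.subgroupMap _
  have e2 : (commutator G).map e.toMonoidHom ≃* commutator K := MulEquiv.subgroupCongr h1
  have e3 : commutator K ≃* (commutator K).map K.subtype :=
    Subgroup.equivMapOfInjective _ _ K.subtype_injective
  have e4 : (commutator K).map K.subtype ≃* L := MulEquiv.subgroupCongr h2
  exact ⟨e1.trans (e2.trans (e3.trans e4))⟩

end Cfsg.Agent.Lib.PiwekK
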